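/-
Piece G8 of helper57's farm wave G (by helper8).
-/
import Cfsg.Agent.Lib.Helper51.OE.F1
import Cfsg.Agent.Lib.Helper57.OE.Base

set_option autoImplicit false

namespace Cfsg.Agent.Lib.Helper8.OE

open Cfsg Cfsg.Geo Matrix Cfsg.Agent.Lib.Helper13.Asch Cfsg.Agent.Lib.Helper90.Sp
open Cfsg.Agent.Lib.Helper51.OE
open scoped Kronecker MatrixGroups

variable {ι : Type} [Fintype ι] [DecidableEq ι] {F : Type*} [Field F] {Q : (ι → F) → F}

theorem plus_of_isometric {W W' : Submodule F (ι → F)} (h : AreIsometricFor Q W W')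
    (hW : IsPlusTypeOn Q W) : IsPlusTypeOn Q W' := by
  obtain ⟨e, he⟩ := h
  obtain ⟨U, hUW, hU, hd⟩ := hW
  refine ⟨((U.comap W.subtype).map e.toLinearMap).map W'.subtype, Submodule.map_subtype_le _ _,
    ?_, ?_⟩
  · rintro _ ⟨_, ⟨u, hu, rfl⟩, rfl⟩
    change Q ((e u : W') : ι → F) = 0
    rw [he]
    exact hU _ hu
  · rw [Submodule.finrank_map_subtype_eq, LinearEquiv.finrank_map_eq,
      (Submodule.comapSubtypeEquivOfLe hUW).finrank_eq, hd, e.finrank_eq]

end Cfsg.Agent.Lib.Helper8.OE
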