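/-
Piece YAP of helper99's farm S5871 wave 2 (by helper8).
`AnisoPlane Q P` of the stub file is spelled out (it is definitionally the same).
-/
import Cfsg.Agent.Lib.Helper57.OE.Defs2

set_option autoImplicit false
set_option linter.unusedSectionVars false

namespace Cfsg.Agent.Lib.Helper8.OE

open Cfsg Cfsg.Geo Matrix Cfsg.Agent.Lib.Helper13.Asch Cfsg.Agent.Lib.Helper90.Sp
open Cfsg.Agent.Lib.Helper57.OE
open scoped Kronecker MatrixGroups

variable {ι : Type} [Fintype ι] [DecidableEq ι] {F : Type*} [Field F] {Q : (ι → F) → F}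

/-- YAP -/
theorem anisoPlane_two [Fintype F] (hq : Fintype.card F = 2) (hQ : IsNondegenerateQuadraticForm Q)
    (P P' : Submodule F (ι → F))
    (hP : Module.finrank F P = 2 ∧ ∀ v ∈ P, v ≠ 0 → Q v ≠ 0)
    (hP' : Module.finrank F P' = 2 ∧ ∀ v ∈ P', v ≠ 0 → Q v ≠ 0) :
    IsNondegenerateOn (QuadraticMap.polar Q) P ∧ ¬ IsPlusTypeOn Q P ∧ AreIsometricFor Q P P' := by
  classical
  -- the field has two elements
  have h01 : ∀ x : F, x = 0 ∨ x = 1 := by
    intro x
    by_contra hx
    push Not at hx
    have h3 : ({0, 1, x} : Finset F).card = 3 := by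
      rw [Finset.card_insert_of_notMem, Finset.card_insert_of_notMem, Finset.card_singleton]
      · simpa using hx.2.symm
      · simp only [Finset.mem_insert, Finset.mem_singleton, not_or]
        exact ⟨zero_ne_one, hx.1.symm⟩
    have := Finset.card_le_univ ({0, 1, x} : Finset F)
    omega
  have h2 : (1 : F) + 1 = 0 := by
    rcases h01 (1 + 1) with h | h
    · exact h
    · exfalso
      have : (1 : F) = 0 := by linear_combination h
      exact one_ne_zero this
  have hQ0 : Q 0 = 0 := by
    have := hQ.smul 0 0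
    simpa using this
  have hval : ∀ (X : Submodule F (ι → F)), (∀ v ∈ X, v ≠ 0 → Q v ≠ 0) → ∀ v ∈ X, v ≠ 0 → Q v = 1 :=
    fun X hX v hv hv0 => (h01 (Q v)).resolve_left (hX v hv hv0)
  have hneg : ∀ v : ι → F, v + v = 0 := by
    intro v
    have : v + v = ((1 : F) + 1) • v := by rw [add_smul, one_smul]
    rw [this, h2, zero_smul]
  refine ⟨?_, ?_, ?_⟩
  · -- nondegenerate
    have key : ∀ w ∈ P, w ≠ 0 → ∃ x ∈ P, QuadraticMap.polar Q x w ≠ 0 := by
      intro w hw hw0
      -- a vector of `P` outside `{0, w}`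
      obtain ⟨x, hx, hxs⟩ : ∃ x ∈ P, x ∉ Submodule.span F {w} := by
        by_contra hcon
        push Not at hcon
        have hle : P ≤ Submodule.span F {w} := hcon
        have h1 := Submodule.finrank_mono hle
        have h3 := finrank_span_le_card (R := F) ({w} : Set (ι → F))
        rw [hP.1] at h1
        simp at h3
        omega
      have hx0 : x ≠ 0 := by
        rintro rfl
        exact hxs (Submodule.zero_mem _)
      have hxw : x + w ≠ 0 := by
        intro h
        apply hxs
        have : x = w := by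
          have h4 : x + w + w = w := by rw [h, zero_add]
          rwa [add_assoc, hneg, add_zero] at h4
        rw [this]
        exact Submodule.mem_span_singleton_self w
      refine ⟨x, hx, ?_⟩
      unfold QuadraticMap.polar
      rw [hval P hP.2 _ (P.add_mem hx hw) hxw, hval P hP.2 _ hx hx0, hval P hP.2 _ hw hw0]
      intro h
      have : (1 : F) = 0 := by linear_combination -h
      exact one_ne_zero this
    intro w hw hw0
    obtain ⟨x, hx, hxw⟩ := key w hw hw0
    exact ⟨⟨x, hx, hxw⟩, ⟨x, hx, by rwa [QuadraticMap.polar_comm]⟩⟩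
  · rintro ⟨U, hUP, hU, hd⟩
    have hU1 : Module.finrank F U = 1 := by rw [hP.1] at hd; omega
    have hUne : U ≠ ⊥ := by
      rintro rfl
      rw [finrank_bot] at hU1
      omega
    obtain ⟨u, hu, hu0⟩ := Submodule.exists_mem_ne_zero_of_ne_bot hUne
    exact hP.2 u (hUP hu) hu0 (hU u hu)
  · let e : P ≃ₗ[F] P' := LinearEquiv.ofFinrankEq P P' (by rw [hP.1, hP'.1])
    refine ⟨e, fun w => ?_⟩
    by_cases hw : w = 0
    · rw [hw, map_zero]
      rfl
    · have h1 : (w : ι → F) ≠ 0 := fun h => hw (Subtype.ext h)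
      have h3 : ((e w : P') : ι → F) ≠ 0 := by
        intro h
        apply hw
        have : e w = 0 := Subtype.ext h
        exact e.map_eq_zero_iff.1 this
      rw [hval P hP.2 _ w.2 h1, hval P' hP'.2 _ (e w).2 h3]

end Cfsg.Agent.Lib.Helper8.OE
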