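/-
Piece G7 of helper57's farm wave G (by helper8).
-/
import Cfsg.Agent.Lib.Helper51.OE.F1
import Cfsg.Agent.Lib.Helper57.OE.Base

set_option autoImplicit false

namespace Cfsg.Agent.Lib.Helper8.OE

open Cfsg Cfsg.Geo Matrix Cfsg.Agent.Lib.Helper13.Asch Cfsg.Agent.Lib.Helper90.Sp
open Cfsg.Agent.Lib.Helper51.OE
open scoped Kronecker MatrixGroups

variable {ι : Type} [Fintype ι] [DecidableEq ι] {F : Type*} [Field F] {Q : (ι → F) → F}

theorem stab_le_decomp_pair (hQ : IsNondegenerateQuadraticForm Q) {H : Subgroup (GL ι F)}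
    (hH : FixesQuadForm (matrixSet H) Q) (W : Submodule F (ι → F))
    (hHW : H ≤ subspaceStabilizer W) : H ≤ decompositionStabilizer ![W, perp hQ W] := by
  have hpol : ∀ g ∈ H, ∀ a b : ι → F, QuadraticMap.polar Q ((g : Matrix ι ι F) *ᵥ a)
      ((g : Matrix ι ι F) *ᵥ b) = QuadraticMap.polar Q a b := by
    intro g hg a b
    have hf := hH (g : Matrix ι ι F) ⟨g, hg, rfl⟩
    unfold QuadraticMap.polar
    rw [← Matrix.mulVec_add, hf, hf, hf]
  have hgg : ∀ (g : GL ι F) (w : ι → F),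
      (g : Matrix ι ι F) *ᵥ (((g⁻¹ : GL ι F) : Matrix ι ι F) *ᵥ w) = w := by
    intro g w
    rw [Matrix.mulVec_mulVec, ← Units.val_mul, mul_inv_cancel, Units.val_one, Matrix.one_mulVec]
  have hW : ∀ g ∈ H, ∀ w ∈ W, (g : Matrix ι ι F) *ᵥ w ∈ W := fun g hg w hw => (hHW hg w).1 hw
  have hP : ∀ g ∈ H, ∀ w ∈ perp hQ W, (g : Matrix ι ι F) *ᵥ w ∈ perp hQ W := by
    intro g hg u hu
    rw [mem_perp] at hu ⊢
    intro w hw
    rw [← hgg g w, hpol g hg]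
    exact hu _ (hW g⁻¹ (inv_mem hg) w hw)
  have key : ∀ (X : Submodule F (ι → F)), (∀ g ∈ H, ∀ w ∈ X, (g : Matrix ι ι F) *ᵥ w ∈ X) →
      ∀ g ∈ H, X.map (Matrix.toLin' (g : Matrix ι ι F)) = X := by
    intro X hX g hg
    apply le_antisymm
    · rintro _ ⟨w, hw, rfl⟩
      rw [Matrix.toLin'_apply]
      exact hX g hg w hw
    · intro w hw
      refine ⟨((g⁻¹ : GL ι F) : Matrix ι ι F) *ᵥ w, hX g⁻¹ (inv_mem hg) w hw, ?_⟩
      rw [Matrix.toLin'_apply, hgg]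
  intro g hg
  refine ⟨1, ?_⟩
  rw [Fin.forall_fin_two]
  exact ⟨key W hW g hg, key _ hP g hg⟩

end Cfsg.Agent.Lib.Helper8.OE
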